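import Cfsg.Agent.OddChar.Virtual
import Cfsg.Agent.OddChar.SectionSep
import Cfsg.Agent.OddChar.TICongr
import Cfsg.Agent.OddChar.FixedTrace
import Cfsg.Agent.Chars.FixedPoints
import Cfsg.Agent.Chars.GaloisValues
import Cfsg.Agent.Chars.Linear
import Mathlib.RingTheory.Int.Basic

/-! Elementary facts on virtual characters used for the Frobenius property of type I subgroups. -/

set_option autoImplicit false
set_option linter.style.haveILetI false
set_option linter.unusedSectionVars false

open scoped Classical ComplexConjugate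

namespace Cfsg.Agent.OddChar.Frob

open Cfsg

universe u

variable {G : Type u} [Group G] [Fintype G]

/-- An automorphism raising the `N`-th roots of unity to the power `k` acts on characters as a power map. -/
theorem aut_apply {Y : Type u} [Group Y] [Finite Y] {σ : ℂ ≃+* ℂ} {N k : ℕ}
    (hσ : ∀ ζ : ℂ, ζ ^ N = 1 → σ ζ = ζ ^ k) (hY : ∀ y : Y, y ^ N = 1) {χ : Y → ℂ} (hχ : IsCharacter Y χ)
    (y : Y) : σ (χ y) = χ (y ^ k) := by
  obtain ⟨n, ρ, rfl⟩ := hχ
  obtain ⟨z, hz, hc, -, -⟩ := Chars.exists_eigenvalues ρ y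
  rw [show ρ.character y = ∑ i, z i by simpa using hc 1, hc k, map_sum]
  refine Finset.sum_congr rfl fun i _ => hσ _ ?_
  obtain ⟨c, hc⟩ := orderOf_dvd_of_pow_eq_one (hY y)
  rw [hc, pow_mul, hz i, one_pow]

/-- One power map realises an automorphism of `ℂ` on the characters of all subgroups. -/
theorem exists_aut_sub (σ : ℂ ≃+* ℂ) : ∃ k : ℕ, k.Coprime (Nat.card G) ∧
    ∀ ζ : ℂ, ζ ^ Nat.card G = 1 → σ ζ = ζ ^ k := by
  have hN : Nat.card G ≠ 0 := Nat.card_pos.ne'
  haveI : NeZero (Nat.card G) := ⟨hN⟩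
  have hω := Complex.isPrimitiveRoot_exp (Nat.card G) hN
  set ω := Complex.exp (2 * Real.pi * Complex.I / (Nat.card G : ℕ))
  obtain ⟨k, -, hk, hk2⟩ := (hω.isPrimitiveRoot_iff).1 (hω.map_of_injective (f := σ) σ.injective)
  refine ⟨k, hk, fun ζ hζ => ?_⟩
  obtain ⟨j, -, hj⟩ := hω.eq_pow_of_pow_eq_one hζ
  rw [← hj, map_pow, ← hk2, ← pow_mul, ← pow_mul, mul_comm]

theorem virt_mul {φ ψ : G → ℂ} (hφ : IsGeneralizedCharacter G φ) (hψ : IsGeneralizedCharacter G ψ) :
    IsGeneralizedCharacter G (fun g => φ g * ψ g) := by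
  obtain ⟨a, b, ha, hb, rfl⟩ := hφ
  obtain ⟨c, d, hc, hd, rfl⟩ := hψ
  refine ⟨(fun g => a g * c g) + fun g => b g * d g, (fun g => a g * d g) + fun g => b g * c g,
    Chars.isCharacter_add (Chars.isCharacter_mul ha hc) (Chars.isCharacter_mul hb hd),
    Chars.isCharacter_add (Chars.isCharacter_mul ha hd) (Chars.isCharacter_mul hb hc), ?_⟩
  funext g
  simp only [Pi.sub_apply, Pi.add_apply]
  ring

theorem virt_isIntegral {φ : G → ℂ} (hφ : IsGeneralizedCharacter G φ) (g : G) : IsIntegral ℤ (φ g) := by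
  obtain ⟨a, b, ha, hb, rfl⟩ := hφ
  exact (Chars.isIntegral_of_isCharacter ha g).sub (Chars.isIntegral_of_isCharacter hb g)

/-- The average over a coset of a centralised subgroup is an algebraic integer. -/
theorem char_avg_isIntegral {χ : G → ℂ} (hχ : IsCharacter G χ) (R : Subgroup G) [Fintype R] {a : G}
    (ha : a ∈ Subgroup.normalizer (R : Set G)) :
    IsIntegral ℤ ((Nat.card R : ℂ)⁻¹ * ∑ u : R, χ (a * u)) := by
  obtain ⟨n, ρ, rfl⟩ := hχ
  obtain ⟨σ, hσ⟩ := exists_rep_average ρ (Subgroup.zpowers a) R (Subgroup.zpowers_le.mpr ha)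
  rw [← hσ ⟨a, Subgroup.mem_zpowers a⟩]
  exact Chars.rep_char_isIntegral σ _

theorem virt_avg_isIntegral {φ : G → ℂ} (hφ : IsGeneralizedCharacter G φ) (R : Subgroup G) [Fintype R] {a : G}
    (ha : a ∈ Subgroup.normalizer (R : Set G)) :
    IsIntegral ℤ ((Nat.card R : ℂ)⁻¹ * ∑ u : R, φ (a * u)) := by
  obtain ⟨c, d, hc, hd, rfl⟩ := hφ
  simp only [Pi.sub_apply, Finset.sum_sub_distrib, mul_sub]
  exact (char_avg_isIntegral hc R ha).sub (char_avg_isIntegral hd R ha)

/-! ### Congruences -/

variable {p : ℕ} [hp : Fact p.Prime]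

theorem congrP_add_pow {a b : ℂ} (ha : IsIntegral ℤ a) (hb : IsIntegral ℤ b) (n : ℕ) :
    Chars.CongrP p ((a + b) ^ p ^ n) (a ^ p ^ n + b ^ p ^ n) := by
  have h := pDiv_pow_sum (p := p) (Finset.univ : Finset (Fin 2)) ![a, b]
    (fun i _ => by fin_cases i <;> simp [ha, hb]) n
  simpa [PDiv, Chars.CongrP, Fin.sum_univ_two] using h

theorem congrP_int_pow (a : ℤ) (n : ℕ) : Chars.CongrP p ((a : ℂ) ^ p ^ n) (a : ℂ) := by
  rw [← Int.cast_pow, Chars.congrP_int hp.out, ← ZMod.intCast_eq_intCast_iff_dvd_sub]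
  push_cast
  rw [ZMod.pow_card_pow]

theorem congrP_nat_pow (a : ℕ) (n : ℕ) : Chars.CongrP p ((a : ℂ) ^ p ^ n) (a : ℂ) := by
  simpa using congrP_int_pow (p := p) (a : ℤ) n

/-- A character value at a product with a commuting `p`-element, modulo `p`. -/
theorem char_congr {χ : G → ℂ} (hχ : IsCharacter G χ) {x u : G} {n : ℕ} (hc : Commute x u)
    (hu : u ^ p ^ n = 1) : Chars.CongrP p (χ (x * u) ^ p ^ n) (χ x ^ p ^ n) := by
  have h1 : Chars.CongrP p (χ (x * u) ^ p ^ n) (χ (x ^ p ^ n)) := by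
    have h := pDiv_char_pow (p := p) hχ (x * u) n
    rw [hc.mul_pow, hu, mul_one] at h
    exact h
  exact Chars.congrP_trans h1 (Chars.congrP_symm (pDiv_char_pow (p := p) hχ x n))

theorem virt_congr (hp2 : p ≠ 2) {φ : G → ℂ} (hφ : IsGeneralizedCharacter G φ) {x u : G} {n : ℕ}
    (hc : Commute x u) (hu : u ^ p ^ n = 1) : Chars.CongrP p (φ (x * u) ^ p ^ n) (φ x ^ p ^ n) := by
  obtain ⟨a, b, ha, hb, rfl⟩ := hφ
  have hodd : Odd (p ^ n) := (hp.out.odd_of_ne_two hp2).pow
  have hx : ∀ g : G, Chars.CongrP p ((a g - b g) ^ p ^ n) (a g ^ p ^ n + -(b g ^ p ^ n)) := fun g => by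
    rw [sub_eq_add_neg, ← Odd.neg_pow hodd]
    exact congrP_add_pow (Chars.isIntegral_of_isCharacter ha g) (Chars.isIntegral_of_isCharacter hb g).neg n
  refine Chars.congrP_trans (hx (x * u)) (Chars.congrP_trans ?_ (Chars.congrP_symm (hx x)))
  refine Chars.congrP_add (char_congr ha hc hu) ?_
  have h := char_congr (p := p) hb hc hu
  unfold Chars.CongrP at h ⊢
  have h' := h.neg
  convert h' using 1
  ring

/-! ### Linear characters -/

/-- The sum of all homomorphisms into `ℂˣ` at an element outside the derived group. -/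
theorem sum_hom_eq {K : Type*} [Group K] [Finite K] [Fintype (K →* ℂˣ)] (a : K) :
    ∑ f : K →* ℂˣ, (f a : ℂ) = if a ∈ commutator K then ((commutator K).index : ℂ) else 0 := by
  haveI : Finite (Abelianization K) := Finite.of_surjective _ QuotientGroup.mk_surjective
  split_ifs with ha
  · have h1 : ∀ f : K →* ℂˣ, f a = 1 := fun f => Abelianization.commutator_subset_ker f ha
    simp only [h1, Units.val_one, Finset.sum_const, Finset.card_univ, nsmul_eq_mul, mul_one,
      ← Nat.card_eq_fintype_card]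
    congr 1
    rw [Nat.card_congr (Abelianization.lift (G := K) (A := ℂˣ)),
      CommGroup.card_monoidHom_of_hasEnoughRootsOfUnity (Abelianization K) ℂ]
    rfl
  · have hne : Abelianization.of a ≠ 1 := fun e => ha ((QuotientGroup.eq_one_iff a).mp e)
    obtain ⟨φ, hφ⟩ := CommGroup.exists_apply_ne_one_of_hasEnoughRootsOfUnity (Abelianization K) ℂ hne
    set f₀ : K →* ℂˣ := φ.comp Abelianization.of
    have h := Fintype.sum_equiv (Equiv.mulLeft f₀) (fun f : K →* ℂˣ => (f₀ a : ℂ) * (f a : ℂ))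
      (fun f : K →* ℂˣ => (f a : ℂ)) (fun f => by simp)
    rw [← Finset.mul_sum] at h
    have h0 : ((f₀ a : ℂ) - 1) * ∑ f : K →* ℂˣ, (f a : ℂ) = 0 := by rw [sub_mul, h, one_mul, sub_self]
    rcases mul_eq_zero.mp h0 with h1 | h1
    · exact absurd (Units.ext (sub_eq_zero.mp h1)) hφ
    · exact h1

/-- Signed irreducible characters of equal degree are orthonormal. -/
theorem signed_inner {a c : G → ℂ} (ha : IsIrrCharacter G a ∨ IsIrrCharacter G (-a))
    (hc : IsIrrCharacter G c ∨ IsIrrCharacter G (-c)) (h : a 1 = c 1) :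
    classInner a c = if a = c then 1 else 0 := by
  split_ifs with hac
  · subst hac
    rcases ha with ha | ha
    · exact Chars.classInner_self_irr ha
    · have := Chars.classInner_self_irr ha
      rw [Chars.classInner_neg_left, ← Chars.classInner_conj_symm, Chars.classInner_neg_left, map_neg,
        neg_neg, Chars.classInner_conj_symm] at this
      exact this
  · have hna : a ≠ -c := fun e => by
      have h1 : a 1 ≠ 0 := by
        rcases ha with ha | ha
        · exact Chars.irr_apply_one_ne_zero ha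
        · simpa using Chars.irr_apply_one_ne_zero ha
      rw [e, Pi.neg_apply] at h h1
      exact h1 (by linear_combination h / 2)
    have hr : ∀ x y : G → ℂ, classInner x (-y) = -classInner x y := fun x y => by
      rw [← Chars.classInner_conj_symm, Chars.classInner_neg_left, map_neg, Chars.classInner_conj_symm]
    rcases ha with ha | ha <;> rcases hc with hc | hc
    · exact Chars.classInner_irr_of_ne ha hc hac
    · simpa [hr] using Chars.classInner_irr_of_ne ha hc hna
    · simpa [Chars.classInner_neg_left] using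
        Chars.classInner_irr_of_ne ha hc (fun e => hna (by rw [← e, neg_neg]))
    · simpa [hr, Chars.classInner_neg_left] using
        Chars.classInner_irr_of_ne ha hc (fun e => hac (neg_injective e))

theorem signed_one_ne {a : G → ℂ} (ha : IsIrrCharacter G a ∨ IsIrrCharacter G (-a)) : a 1 ≠ 0 := by
  rcases ha with ha | ha
  · exact Chars.irr_apply_one_ne_zero ha
  · simpa using Chars.irr_apply_one_ne_zero ha

end Cfsg.Agent.OddChar.Frob
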