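import Cfsg.Agent.Coprime.Generation
import Mathlib.GroupTheory.SemidirectProduct
import Mathlib.GroupTheory.SpecificGroups.Cyclic

/-! Small facts on finite groups used for the abelian `τ₂` configuration. -/

set_option autoImplicit false
set_option maxHeartbeats 400000
set_option linter.style.haveILetI false
set_option linter.unusedSectionVars false

namespace Cfsg.Agent.OddChar.Frob

open scoped commutatorElement

universe u

theorem centre_index_sq {q : ℕ} (hq : q.Prime) : ∀ (n : ℕ) {X : Type u} [Group X] [Finite X],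
    Nat.card X = n → ∀ (Z : Subgroup X), Z ≤ Subgroup.center X → Nat.card Z = q → (∀ a b : X, ⁅a, b⁆ ∈ Z) →
      ∃ m : ℕ, (Subgroup.center X).index = q ^ (2 * m) := by
  intro n
  induction n using Nat.strong_induction_on with
  | _ n ih =>
    intro X _ _ hn Z hZ hZc hcomm
    by_cases htop : Subgroup.center X = ⊤
    · exact ⟨0, by rw [htop, Subgroup.index_top, mul_zero, pow_zero]⟩
    obtain ⟨x, hx⟩ : ∃ x, x ∉ Subgroup.center X := not_forall.mp fun h => htop (eq_top_iff.mpr fun g _ => h g)
    obtain ⟨y, hy⟩ : ∃ y, ⁅x, y⁆ ≠ 1 := not_forall.mp fun h => hx (Subgroup.mem_center_iff.mpr fun g =>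
      (commutatorElement_eq_one_iff_mul_comm.mp (h g)).symm)
    have hcen : ∀ a b g : X, g * ⁅a, b⁆ = ⁅a, b⁆ * g := fun a b g => Subgroup.mem_center_iff.mp (hZ (hcomm a b)) g
    have hmul : ∀ t a b : X, ⁅t, a * b⁆ = ⁅t, a⁆ * ⁅t, b⁆ := fun t a b => by
      rw [show ⁅t, a * b⁆ = ⁅t, a⁆ * (a * ⁅t, b⁆ * a⁻¹) by simp only [commutatorElement_def]; group,
        hcen t b a, mul_inv_cancel_right]
    let φ : X → X →* Z := fun t =>
      { toFun := fun a => ⟨⁅t, a⁆, hcomm t a⟩
        map_one' := Subtype.ext (by simp)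
        map_mul' := fun a b => Subtype.ext (hmul t a b) }
    set ψ : X →* Z × Z := (φ x).prod (φ y)
    have hψv : ∀ a, ψ a = (⟨⁅x, a⁆, hcomm x a⟩, ⟨⁅y, a⁆, hcomm y a⟩) := fun a => rfl
    set S := Subgroup.closure ({x, y} : Set X)
    haveI := Fact.mk hq
    have hS : S.map ψ = ⊤ := by
      have h1 : ∀ c : Z, c ∈ Subgroup.zpowers (⟨⁅x, y⁆, hcomm x y⟩ : Z) := fun c =>
        mem_zpowers_of_prime_card hZc (g := (⟨⁅x, y⁆, hcomm x y⟩ : Z)) (fun e => hy (congrArg Subtype.val e))
      rw [eq_top_iff]
      rintro ⟨u, v⟩ -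
      obtain ⟨i, hi⟩ := h1 u
      obtain ⟨j, hj⟩ := h1 v
      have hxS : x ∈ S := Subgroup.subset_closure (by simp)
      have hyS : y ∈ S := Subgroup.subset_closure (by simp)
      refine ⟨y ^ i * x ^ (-j), Subgroup.mul_mem S (Subgroup.zpow_mem S hyS i) (Subgroup.zpow_mem S hxS _), ?_⟩
      rw [map_mul, map_zpow, map_zpow, hψv, hψv]
      refine Prod.ext (Subtype.ext ?_) (Subtype.ext ?_)
      · simp only [Prod.fst_mul, Prod.pow_fst, Subgroup.coe_mul, Subgroup.coe_zpow, commutatorElement_self, one_zpow, mul_one]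
        rw [← congrArg Subtype.val hi, Subgroup.coe_zpow]
      · have : ⁅y, x⁆ = ⁅x, y⁆⁻¹ := (commutatorElement_inv x y).symm
        simp only [Prod.snd_mul, Prod.pow_snd, Prod.snd_inv, Subgroup.coe_inv, Subgroup.coe_mul, Subgroup.coe_zpow, commutatorElement_self, one_zpow, one_mul, this, inv_zpow, zpow_neg, inv_inv]
        rw [← congrArg Subtype.val hj, Subgroup.coe_zpow]
    set P := ψ.ker with hP
    have hPidx : P.index = q ^ 2 := by
      have hrange : ψ.range = ⊤ := top_le_iff.mp (le_of_eq_of_le hS.symm (Subgroup.map_le_range ψ S))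
      rw [hP, Subgroup.index_ker, hrange, Subgroup.card_top, Nat.card_prod, hZc, sq]
    have hker : ∀ {a : X}, a ∈ P → a * x = x * a ∧ a * y = y * a := fun {a} ha => by
      rw [hP, MonoidHom.mem_ker, hψv, Prod.mk_eq_one] at ha
      exact ⟨(commutatorElement_eq_one_iff_mul_comm.mp (congrArg Subtype.val ha.1)).symm,
        (commutatorElement_eq_one_iff_mul_comm.mp (congrArg Subtype.val ha.2)).symm⟩
    have hZP : Subgroup.center X ≤ P := fun c hc => by
      rw [hP, MonoidHom.mem_ker, hψv, Prod.mk_eq_one]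
      exact ⟨Subtype.ext (commutatorElement_eq_one_iff_mul_comm.mpr (Subgroup.mem_center_iff.mp hc x)),
        Subtype.ext (commutatorElement_eq_one_iff_mul_comm.mpr (Subgroup.mem_center_iff.mp hc y))⟩
    have hcP : Subgroup.center P = (Subgroup.center X).subgroupOf P := by
      ext c
      rw [Subgroup.mem_center_iff, Subgroup.mem_subgroupOf, Subgroup.mem_center_iff]
      refine ⟨fun h g => ?_, fun h g => Subtype.ext (h g)⟩
      obtain ⟨s, hs, he⟩ : ψ g ∈ S.map ψ := hS ▸ Subgroup.mem_top _
      have hgs : g * s⁻¹ ∈ P := by rw [hP, MonoidHom.mem_ker, map_mul, map_inv, he, mul_inv_cancel]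
      have h1 : (c : X) * (g * s⁻¹) = (g * s⁻¹) * c := (congrArg Subtype.val (h ⟨_, hgs⟩)).symm
      have h2 : Commute (c : X) s := by
        refine Subgroup.mem_centralizer_singleton_iff.mp ?_ |>.symm
        refine (Subgroup.closure_le (Subgroup.centralizer ({(c : X)} : Set X))).mpr ?_ hs
        rintro t (rfl | rfl)
        · exact Subgroup.mem_centralizer_singleton_iff.mpr (hker c.2).1.symm
        · exact Subgroup.mem_centralizer_singleton_iff.mpr (hker c.2).2.symm
      have h3 := (show Commute (c : X) (g * s⁻¹) from h1).mul_right h2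
      rw [inv_mul_cancel_right] at h3
      exact h3.symm.eq
    have hlt : Nat.card P < n := by
      have h := P.index_mul_card
      rw [hPidx, hn] at h
      have h4 : 4 ≤ q ^ 2 := by nlinarith [hq.two_le]
      have := Nat.card_pos (α := P)
      nlinarith
    have hZP' : Z ≤ P := hZ.trans hZP
    obtain ⟨m, hm⟩ := ih _ hlt (X := P) rfl (Z.subgroupOf P)
      (fun c hc => by rw [hcP]; exact Subgroup.mem_subgroupOf.mpr (hZ hc))
      (by rw [Nat.card_congr (Subgroup.subgroupOfEquivOfLe hZP').toEquiv, hZc])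
      (fun a b => Subgroup.mem_subgroupOf.mpr (by simpa [commutatorElement_def] using hcomm (a : X) b))
    refine ⟨m + 1, ?_⟩
    rw [← Subgroup.relIndex_mul_index hZP, hPidx, show (Subgroup.center X).relIndex P = q ^ (2 * m) by
      rw [Subgroup.relIndex, ← hcP, hm], ← pow_add]
    ring

/-- An abelian coprime group of fixed-point-free automorphisms is cyclic. -/
theorem isCyclic_of_fpf_autGroup {A : Type u} [Group A] [Finite A] [Nontrivial A] (R : Subgroup (MulAut A))
    (hc : ∀ a ∈ R, ∀ b ∈ R, a * b = b * a) (hco : (Nat.card R).Coprime (Nat.card A))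
    (hfpf : ∀ r ∈ R, r ≠ 1 → ∀ a : A, r a = a → a = 1) : IsCyclic R := by
  haveI : Finite (MulAut A) := Finite.of_injective (fun a => (a : A → A)) DFunLike.coe_injective
  by_contra hnc
  haveI : Finite (A ⋊[R.subtype] R) := Finite.of_equiv _ SemidirectProduct.equivProd.symm
  set N := (SemidirectProduct.inl : A →* A ⋊[R.subtype] R).range
  set X := (SemidirectProduct.inr : R →* A ⋊[R.subtype] R).range
  have hNc : Nat.card N = Nat.card A :=
    (Nat.card_congr (MonoidHom.ofInjective SemidirectProduct.inl_injective).toEquiv).symm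
  have hXc : Nat.card X = Nat.card R :=
    (Nat.card_congr (MonoidHom.ofInjective SemidirectProduct.inr_injective).toEquiv).symm
  haveI : IsMulCommutative X := ⟨⟨by
    rintro ⟨_, a, rfl⟩ ⟨_, b, rfl⟩
    refine Subtype.ext ?_
    show SemidirectProduct.inr a * SemidirectProduct.inr b = SemidirectProduct.inr b * SemidirectProduct.inr a
    rw [← map_mul, ← map_mul, show a * b = b * a from Subtype.ext (hc a a.2 b b.2)]⟩⟩
  have hXN : X ≤ Subgroup.normalizer (N : Set (A ⋊[R.subtype] R)) := by
    haveI : N.Normal := by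
      rw [show N = (SemidirectProduct.rightHom : (A ⋊[R.subtype] R) →* R).ker from
        SemidirectProduct.range_inl_eq_ker_rightHom]
      infer_instance
    rw [Subgroup.normalizer_eq_top (H := N)]
    exact le_top
  have hXnc : ¬ IsCyclic X := fun h => hnc
    (isCyclic_of_surjective (MonoidHom.ofInjective (SemidirectProduct.inr_injective (φ := R.subtype))).symm
      (MulEquiv.surjective _))
  have h := Coprime.eq_centralizerJoin hXnc hXN (by rw [hXc, hNc]; exact hco)
  have hbot : Coprime.centralizerJoin N X = ⊥ := le_bot_iff.mp (iSup_le fun e => by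
    rintro w ⟨⟨a, rfl⟩, hw⟩
    obtain ⟨⟨r, hr⟩, hre⟩ := e.2.1
    have hr1 : r ≠ 1 := fun h1 => e.2.2 (by
      rw [← hre, show (⟨r, hr⟩ : R) = 1 from Subtype.ext h1, map_one])
    have h1 := Subgroup.mem_centralizer_singleton_iff.mp hw
    rw [← hre] at h1
    have h2 := congrArg SemidirectProduct.left h1
    simp only [SemidirectProduct.mul_left, SemidirectProduct.left_inl, SemidirectProduct.right_inl,
      SemidirectProduct.left_inr, SemidirectProduct.right_inr, map_one, MulAut.one_apply, mul_one, one_mul] at h2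
    rw [Subgroup.mem_bot, hfpf r hr hr1 a h2.symm, map_one])
  rw [hbot] at h
  have := hNc
  rw [← h, Subgroup.card_bot] at this
  exact absurd this.symm (Finite.one_lt_card).ne'

end Cfsg.Agent.OddChar.Frob
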